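import Cfsg.Agent.Lib.Conway.U62C.Defs

/-!
# Checks for the stabiliser of two minimal vectors
-/

set_option autoImplicit false

namespace Cfsg.Agent.Lib.Conway.U62C

open Cfsg Cfsg.Spor Cfsg.Agent.Lib.Compute Cfsg.Agent.Lib.Golay Cfsg.Agent.Lib.KnownSimple.PE Cfsg.Agent.Lib.KnownSimple.Leech

theorem hmem : allBelow (fun i => chkL (vecZ xc i)) 893 = true := by decide +kernel

theorem hsl : allBelow (fun m => allBelow (fun k => Nat.blt (sl m k) 693) 21) 891 = true := by decide +kernel

theorem chkU : allBelow (fun m => allBelow (fun m' => bcond (allBelow (fun k => tb (mk m') (sl m k)) 21) (Nat.beq m' m) true) 891) 42 = true := by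
  decide +kernel

theorem chkSp : chkSpan 8 Bf 44 Cf = true := by decide +kernel

theorem chkEqU : allBelow (fun j => decide (vecZ xc 891 j = dotS rowU (dlt j))) 24 = true := by decide +kernel

theorem norm_w0 : dotZ xc 892 892 = 32 := by decide +kernel

theorem dot_U_w0 : dotZ xc 891 892 = -16 := by decide +kernel

theorem moved : vecZ xc (sg 1 0) 0 ≠ vecZ xc 0 0 := by decide +kernel

theorem sg10 : sg 1 0 < 891 := by decide +kernel

theorem ce0 : chkElt S0 S0 = true := by decide +kernel

theorem cF0 : chkF S0 = true := by decide +kernel

theorem ce1 : chkElt S1 S1 = true := by decide +kernel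

theorem cF1 : chkF S1 = true := by decide +kernel

theorem ce2 : chkElt S2 S2 = true := by decide +kernel

theorem cF2 : chkF S2 = true := by decide +kernel

theorem ce3 : chkElt S3 S3 = true := by decide +kernel

theorem cF3 : chkF S3 = true := by decide +kernel

theorem ce4 : chkElt S4 S4 = true := by decide +kernel

theorem cF4 : chkF S4 = true := by decide +kernel

theorem ce5 : chkElt S5 S5 = true := by decide +kernel

theorem cF5 : chkF S5 = true := by decide +kernel

theorem ce6 : chkElt S6 S6 = true := by decide +kernel

theorem cF6 : chkF S6 = true := by decide +kernel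

theorem ce7 : chkElt S7 S7 = true := by decide +kernel

theorem cF7 : chkF S7 = true := by decide +kernel

theorem ce8 : chkElt S8 S8 = true := by decide +kernel

theorem cF8 : chkF S8 = true := by decide +kernel

end Cfsg.Agent.Lib.Conway.U62C
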