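import Cfsg.Agent.Lib.Conway.U62C.Defs

/-!
# Checks for the stabiliser of two minimal vectors
-/

set_option autoImplicit false

namespace Cfsg.Agent.Lib.Conway.U62C

open Cfsg Cfsg.Spor Cfsg.Agent.Lib.Compute Cfsg.Agent.Lib.Golay Cfsg.Agent.Lib.KnownSimple.PE Cfsg.Agent.Lib.KnownSimple.Leech

theorem cI3 : chkI S3 3 = true := by decide +kernel

theorem cN3 : chkN 3 = true := by decide +kernel

end Cfsg.Agent.Lib.Conway.U62C
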