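import Cfsg.Agent.Lib.Iso.U62
import Cfsg.Agent.Lib.Conway.X46.Main
import Cfsg.Agent.Lib.Conway.Co3Use
import Cfsg.Agent.Lib.Conway.U62C.Data

/-!
# Definitions for the stabiliser of two minimal vectors: vectors and lines
-/

set_option autoImplicit false

namespace Cfsg.Agent.Lib.Conway.U62C

open Cfsg Cfsg.Spor Cfsg.Agent.Lib.Compute Cfsg.Agent.Lib.Golay Cfsg.Agent.Lib.KnownSimple.PE Cfsg.Agent.Lib.KnownSimple.Leech

/-- A packed vector of the table. -/
noncomputable def xc (m : ℕ) : ℕ := Nat.land (Nat.shiftRight xP (Nat.mul 120 m)) 1329227995784915872903807060280344575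

/-- An entry of the incidence table. -/
noncomputable def sl (m k : ℕ) : ℕ := Nat.land (Nat.shiftRight sP (Nat.mul 10 (Nat.add (Nat.mul 21 m) k))) 1023

/-- The permutation of a generator on the vectors. -/
noncomputable def sg (g m : ℕ) : ℕ := Nat.land (Nat.shiftRight sgP (Nat.mul 10 (Nat.add (Nat.mul 9 m) g))) 1023

/-- The mask of the first entries of the incidence table. -/
noncomputable def mkN (m : ℕ) (K : ℕ) : ℕ := Nat.rec 0 (fun k ih => Nat.lor ih (Nat.shiftLeft 1 (sl m k))) K

/-- The mask of a row of the incidence table. -/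
noncomputable abbrev mk (m : ℕ) : ℕ := mkN m 21

/-- The check of the image of the vectors. -/
noncomputable def chkI (S : List (List (ℕ × ℤ))) (g : ℕ) : Bool :=
  allBelow (fun m => bcond (Nat.blt (sg g m) 891) (chkImgV S (vecZ xc m) (vecZ xc (sg g m))) false) 891

/-- The check on the incidence. -/
noncomputable def chkN (g : ℕ) : Bool :=
  allBelow (fun m => allBelow (fun k => tb (mk (sg g m)) (Cfsg.Agent.Lib.Iso.U62.tO (sl m k) g)) 21) 891

/-- The check on the two fixed vectors. -/
noncomputable def chkF (S : List (List (ℕ × ℤ))) : Bool :=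
  chkImgV S (vecZ xc 891) (vecZ xc 891) && chkImgV S (vecZ xc 892) (vecZ xc 892)

/-- The indices of a spanning family. -/
noncomputable def bi (i : ℕ) : ℕ := bcond (Nat.blt i 42) i (Nat.add i 849)

/-- A spanning family. -/
noncomputable def Bf (i k : ℕ) : ℤ := vecZ xc (bi i) k

/-- The coefficients of the generators of the lattice in the spanning family. -/
noncomputable def Cf (j i : ℕ) : ℤ :=
  bcond (Nat.blt i 42)
    (Int.add (bcond (Nat.beq (Nat.mod i 2) 0) (LGF j (Nat.add (Nat.div i 2) 2)) (Int.neg (LGF j (Nat.add (Nat.div i 2) 2))))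
      (bcond (Nat.blt i 2) (Int.add (Int.add (Int.neg (LGF j 23)) (LGF j 0)) (LGF j 1)) 0))
    (bcond (Nat.beq i 42) (Int.mul 2 (Int.add (LGF j 0) (LGF j 1))) (Int.mul 2 (LGF j 1)))

end Cfsg.Agent.Lib.Conway.U62C
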