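import Cfsg.Agent.Lib.Conway.U62C.Chk0
import Cfsg.Agent.Lib.Conway.U62C.ChkG0
import Cfsg.Agent.Lib.Conway.U62C.ChkG1
import Cfsg.Agent.Lib.Conway.U62C.ChkG2
import Cfsg.Agent.Lib.Conway.U62C.ChkG3
import Cfsg.Agent.Lib.Conway.U62C.ChkG4
import Cfsg.Agent.Lib.Conway.U62C.ChkG5
import Cfsg.Agent.Lib.Conway.U62C.ChkG6
import Cfsg.Agent.Lib.Conway.U62C.ChkG7
import Cfsg.Agent.Lib.Conway.U62C.ChkG8
import Cfsg.Agent.Lib.Conway.Co2S.Main
import Cfsg.Agent.Lib.Classical.RingCongr3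

/-!
# The stabiliser of two minimal vectors of inner product `-2` is the unitary group of dimension six over four elements
-/

set_option autoImplicit false

namespace Cfsg.Agent.Lib.Conway.U62C

open Cfsg Cfsg.Spor Cfsg.Agent.Lib.Compute Cfsg.Agent.Lib.Golay Cfsg.Agent.Lib.KnownSimple.PE Cfsg.Agent.Lib.KnownSimple.Leech
open Cfsg.Agent.Lib.Iso Cfsg.Agent.Lib.Conway Cfsg.Agent.Lib.TC MulAction

/-! ### The incidence table -/

theorem tb_mkN (m K n : ℕ) : tb (mkN m K) n = true ↔ ∃ k, k < K ∧ sl m k = n := by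
  induction K with
  | zero =>
    show tb 0 n = true ↔ _
    rw [tb_eq]
    simp
  | succ K ih =>
    show tb (Nat.lor (mkN m K) (Nat.shiftLeft 1 (sl m K))) n = true ↔ _
    rw [tb_eq] at ih ⊢
    have e : (Nat.lor (mkN m K) (Nat.shiftLeft 1 (sl m K))).testBit n =
        ((mkN m K).testBit n || (1 <<< (sl m K) : ℕ).testBit n) := Nat.testBit_or _ _ _
    rw [e, Bool.or_eq_true, ih, testBit_shift_one]
    constructor
    · rintro (⟨k, hk, rfl⟩ | rfl)
      · exact ⟨k, by omega, rfl⟩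
      · exact ⟨K, by omega, rfl⟩
    · rintro ⟨k, hk, rfl⟩
      by_cases h : k = K
      · subst h
        exact Or.inr rfl
      · exact Or.inl ⟨k, by omega, rfl⟩

theorem sl_lt {m k : ℕ} (hm : m < 891) (hk : k < 21) : sl m k < 693 := by
  have h := (allBelow_iff _ _).1 ((allBelow_iff _ _).1 hsl m hm) k hk
  simpa [Nat.blt_eq] using h

/-- A vector of the table. -/
noncomputable def xv (m : ℕ) : LL :=
  if h : m < 893 then ⟨ofF (vecZ xc m), mem_L_of_chkL ((allBelow_iff _ _).1 hmem m h)⟩ else 0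

theorem xv_pt {m : ℕ} (hm : m < 893) {j : ℕ} (hj : j < 24) : ((xv m : LL) : Vec) (pt j) = vecZ xc m j := by
  unfold xv
  rw [dif_pos hm]
  show ofF (vecZ xc m) (pt j) = vecZ xc m j
  exact ofF_pt _ hj

theorem xv_eq {m : ℕ} (hm : m < 893) (hm' : ofF (vecZ xc m) ∈ leechLattice) : xv m = ⟨ofF (vecZ xc m), hm'⟩ := by
  unfold xv
  rw [dif_pos hm]

/-! ### The relation -/

/-- The relation between a permutation of the lines and an automorphism of the lattice. -/
def Q (a : Equiv.Perm (Fin U62.tb.n)) (f : Equiv.Perm LL) : Prop :=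
  ∀ m, m < 891 → ∃ m', m' < 891 ∧ f (xv m) = xv m' ∧
    ∀ n : Fin U62.tb.n, tb (mk m) n.val = true → tb (mk m') (a n).val = true

theorem Q_one : Q 1 1 := fun m hm => ⟨m, hm, rfl, fun _ h => h⟩

theorem Q_mul {a a' : Equiv.Perm (Fin U62.tb.n)} {f f' : Equiv.Perm LL} (h : Q a f) (h' : Q a' f') : Q (a * a') (f * f') := by
  intro m hm
  obtain ⟨m1, hm1, e1, s1⟩ := h' m hm
  obtain ⟨m2, hm2, e2, s2⟩ := h m1 hm1
  exact ⟨m2, hm2, by rw [Equiv.Perm.mul_apply, e1, e2], fun n hn => s2 _ (s1 n hn)⟩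

theorem Q_pow {a : Equiv.Perm (Fin U62.tb.n)} {f : Equiv.Perm LL} (h : Q a f) (N : ℕ) : Q (a ^ N) (f ^ N) := by
  induction N with
  | zero =>
    rw [pow_zero, pow_zero]
    exact Q_one
  | succ N ih =>
    rw [pow_succ, pow_succ]
    exact Q_mul ih h

/-- The second fixed vector. -/
noncomputable def w0 : LL := xv 892

theorem xv891 : xv 891 = leechU := by
  apply LL_ext
  intro j hj
  rw [xv_pt (by norm_num) hj, rowU_pt j hj]
  exact of_decide_eq_true ((allBelow_iff _ _).1 chkEqU j hj)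

/-- The group. -/
noncomputable def Gam : Subgroup (Equiv.Perm LL) := Spor.Co2 ⊓ MulAction.stabilizer (Equiv.Perm LL) w0

theorem mem_Gam {f : Equiv.Perm LL} (h0 : f ∈ Co0) (h1 : f leechU = leechU) (h2 : f w0 = w0) : f ∈ Gam :=
  ⟨⟨h0, h1⟩, h2⟩

theorem Gam_co0 {f : Equiv.Perm LL} (h : f ∈ Gam) : f ∈ Co0 := h.1.1
theorem Gam_U {f : Equiv.Perm LL} (h : f ∈ Gam) : f leechU = leechU := h.1.2
theorem Gam_w {f : Equiv.Perm LL} (h : f ∈ Gam) : f w0 = w0 := h.2

/-- An element of the group attached to a generator. -/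
structure GenOK (g : ℕ) (f : Equiv.Perm LL) : Prop where
  mem : f ∈ Gam
  img : ∀ m, m < 891 → f (xv m) = xv (sg g m)
  q : Q (U62.tb.perm g) f

theorem genOK_of {g : ℕ} (hg : g < 9) {S : List (List (ℕ × ℤ))} (hce : chkElt S S = true) (hF : chkF S = true)
    (hI : chkI S g = true) (hN : chkN g = true) : ∃ f, GenOK g f := by
  obtain ⟨f, hf, hs⟩ := exists_elt hce
  have hS : ∀ i, ∀ q ∈ rowOf S i, q.1 < 24 := by
    unfold chkElt at hce
    simp only [Bool.and_eq_true] at hce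
    exact cols_of_all hce.1.1.1.1.1.1
  have hF' := hF
  unfold chkF at hF'
  rw [Bool.and_eq_true] at hF'
  have hlt : ∀ m, m < 891 → sg g m < 891 ∧ chkImgV S (vecZ xc m) (vecZ xc (sg g m)) = true := by
    intro m hm
    have h1 := (allBelow_iff _ _).1 hI m hm
    cases h2 : Nat.blt (sg g m) 891
    · rw [h2, bcond_false] at h1
      exact Bool.noConfusion h1
    · rw [h2, bcond_true] at h1
      exact ⟨by simpa [Nat.blt_eq] using h2, h1⟩
  have himg : ∀ m, m < 891 → f (xv m) = xv (sg g m) := fun m hm =>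
    img_of_S hS hs (fun j hj => xv_pt (by omega) hj) (fun j hj => xv_pt (by have := (hlt m hm).1; omega) hj) (hlt m hm).2
  refine ⟨f, ⟨?_, himg, ?_⟩⟩
  · refine mem_Gam hf ?_ ?_
    · rw [← xv891]
      exact img_of_S hS hs (fun j hj => xv_pt (by norm_num) hj) (fun j hj => xv_pt (by norm_num) hj) hF'.1
    · exact img_of_S hS hs (fun j hj => xv_pt (by norm_num) hj) (fun j hj => xv_pt (by norm_num) hj) hF'.2
  · intro m hm
    refine ⟨sg g m, (hlt m hm).1, himg m hm, ?_⟩
    intro n hn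
    obtain ⟨k, hk, e⟩ := (tb_mkN m 21 _).1 hn
    have h2 := (allBelow_iff _ _).1 ((allBelow_iff _ _).1 hN m hm) k hk
    rw [e] at h2
    rw [U62.tb.perm_val (show g < U62.tb.ng from hg)]
    exact h2

theorem exG : ∀ g, g < 9 → ∃ f, GenOK g f := by
  intro g hg
  interval_cases g
  · exact genOK_of (by norm_num) ce0 cF0 cI0 cN0
  · exact genOK_of (by norm_num) ce1 cF1 cI1 cN1
  · exact genOK_of (by norm_num) ce2 cF2 cI2 cN2
  · exact genOK_of (by norm_num) ce3 cF3 cI3 cN3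
  · exact genOK_of (by norm_num) ce4 cF4 cI4 cN4
  · exact genOK_of (by norm_num) ce5 cF5 cI5 cN5
  · exact genOK_of (by norm_num) ce6 cF6 cI6 cN6
  · exact genOK_of (by norm_num) ce7 cF7 cI7 cN7
  · exact genOK_of (by norm_num) ce8 cF8 cI8 cN8

/-- The group of permutations of the lines. -/
noncomputable abbrev AA : Subgroup (Equiv.Perm (Fin U62.tb.n)) := U62.tb.gp U62Data.SW

theorem exists_Q_word : ∀ w : List ℕ, (∀ g ∈ w, g < U62.tb.ng) → ∃ f ∈ Gam, Q (evalWord U62.tb.perm w) f := by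
  intro w hw
  induction w with
  | nil => exact ⟨1, Gam.one_mem, Q_one⟩
  | cons g w ih =>
    obtain ⟨f, hf, hq⟩ := ih (fun a ha => hw a (by simp [ha]))
    obtain ⟨f0, hf0⟩ := exG g (hw g (by simp))
    rw [evalWord_cons]
    exact ⟨f0 * f, Gam.mul_mem hf0.mem hf, Q_mul hf0.q hq⟩

theorem exists_Q : ∀ a ∈ AA, ∃ f ∈ Gam, Q a f := by
  intro a ha
  induction ha using Subgroup.closure_induction with
  | mem a h =>
    obtain ⟨w, hw, rfl⟩ := h
    exact exists_Q_word w (U62.hlet w hw)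
  | one => exact ⟨1, Gam.one_mem, Q_one⟩
  | mul a b _ _ ha hb =>
    obtain ⟨f, hf, hq⟩ := ha
    obtain ⟨f', hf', hq'⟩ := hb
    exact ⟨f * f', Gam.mul_mem hf hf', Q_mul hq hq'⟩
  | inv a _ ha =>
    obtain ⟨f, hf, hq⟩ := ha
    refine ⟨f ^ (orderOf a - 1), Gam.pow_mem hf _, ?_⟩
    have h1 : a⁻¹ = a ^ (orderOf a - 1) := by
      apply inv_eq_of_mul_eq_one_right
      rw [← pow_succ', Nat.sub_add_cancel (orderOf_pos a), pow_orderOf_eq_one]
    rw [h1]
    exact Q_pow hq _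

theorem eq_one_of_Q {δ : Equiv.Perm LL} (hδ : δ ∈ Gam) (h : Q 1 δ) : δ = 1 := by
  have hfix : ∀ m, m < 42 → δ (xv m) = xv m := by
    intro m hm
    obtain ⟨m', hm', e, s⟩ := h m (by omega)
    have h3 : m' = m := by
      have h1 := (allBelow_iff _ _).1 ((allBelow_iff _ _).1 chkU m hm) m' hm'
      have h2 : allBelow (fun k => tb (mk m') (sl m k)) 21 = true := by
        rw [allBelow_iff]
        intro k hk
        have hn : tb (mk m) (sl m k) = true := (tb_mkN m 21 _).2 ⟨k, hk, rfl⟩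
        exact s ⟨sl m k, sl_lt (by omega) hk⟩ hn
      rw [h2, bcond_true] at h1
      exact Nat.eq_of_beq_eq_true h1
    rw [e, h3]
  have hbi : ∀ i, i < 44 → bi i < 893 ∧ δ (xv (bi i)) = xv (bi i) := by
    intro i hi
    by_cases h1 : i < 42
    · have e : bi i = i := by
        unfold bi
        rw [show Nat.blt i 42 = true by simpa [Nat.blt_eq] using h1, bcond_true]
      rw [e]
      exact ⟨by omega, hfix i h1⟩
    · have h2 : i = 42 ∨ i = 43 := by omega
      rcases h2 with rfl | rfl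
      · refine ⟨by decide +kernel, ?_⟩
        rw [show bi 42 = 891 by decide +kernel, xv891]
        exact Gam_U hδ
      · refine ⟨by decide +kernel, ?_⟩
        rw [show bi 43 = 892 by decide +kernel]
        exact Gam_w hδ
  have hB : ∀ i, i < 44 → ofF (Bf i) ∈ leechLattice := fun i hi =>
    mem_L_of_chkL ((allBelow_iff _ _).1 hmem (bi i) (hbi i hi).1)
  refine eq_one_of_span (D := 8) (by norm_num) chkSp hB (Gam_co0 hδ) ?_
  intro i hi
  have h1 := (hbi i hi).2
  rw [xv_eq (hbi i hi).1 (hB i hi)] at h1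
  exact h1

instance finite_perm : Finite (Equiv.Perm (Fin U62.tb.n)) := inferInstance

/-! ### The order of the group -/

theorem w0_mem : w0 ∈ XD leechU (-16) := by
  constructor
  · have h1 : sqNorm ((xv 892 : LL) : Vec) = dotZ xc 892 892 := by
      rw [LRep.sqNorm_eq_dot]
      unfold dotZ dotInt
      rw [sumN_eq, sum_eq]
      refine Finset.sum_congr rfl fun k hk => ?_
      have hk' := Finset.mem_range.1 hk
      rw [xv_pt (by norm_num) hk']
      rfl
    show sqNorm ((xv 892 : LL) : Vec) = 32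
    rw [h1]
    exact norm_w0
  · have h1 : dotInt ((xv 891 : LL) : Vec) ((xv 892 : LL) : Vec) = dotZ xc 891 892 := by
      unfold dotZ dotInt
      rw [sumN_eq, sum_eq]
      refine Finset.sum_congr rfl fun k hk => ?_
      have hk' := Finset.mem_range.1 hk
      rw [xv_pt (by norm_num) hk', xv_pt (by norm_num) hk']
      rfl
    rw [xv891] at h1
    show dotInt (leechU : Vec) ((xv 892 : LL) : Vec) = -16
    rw [h1]
    exact dot_U_w0

theorem card_stab : Nat.card ↥(MulAction.stabilizer ↥Spor.Co2 w0) * 4600 = 42305421312000 := by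
  have h1 := (MulAction.stabilizer ↥Spor.Co2 w0).card_mul_index
  rw [MulAction.index_stabilizer] at h1
  have h2 : MulAction.orbit ↥Spor.Co2 w0 = XD leechU (-16) := by
    ext x
    constructor
    · rintro ⟨g, rfl⟩
      have himg := XD_image g.2.1 leechU (-16)
      rw [show g.1 leechU = leechU from g.2.2] at himg
      rw [← himg]
      exact ⟨w0, w0_mem, rfl⟩
    · intro hx
      obtain ⟨g, e⟩ := X46.trans_XD w0_mem hx
      exact ⟨g, e⟩
  rw [h2, C3.ncard_XD_16, C2S.card_Co2] at h1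
  exact h1

/-- The group as a stabiliser. -/
noncomputable def gamEquiv : ↥Gam ≃ ↥(MulAction.stabilizer ↥Spor.Co2 w0) where
  toFun f := ⟨⟨f.1, f.2.1⟩, f.2.2⟩
  invFun g := ⟨g.1.1, ⟨g.1.2, g.2⟩⟩
  left_inv _ := rfl
  right_inv _ := rfl

theorem card_Gam : Nat.card ↥Gam = 9196830720 := by
  rw [Nat.card_congr gamEquiv]
  have h1 := card_stab
  have h2 : Nat.card ↥(MulAction.stabilizer ↥Spor.Co2 w0) * 4600 = 9196830720 * 4600 := by
    rw [h1]
  exact Nat.eq_of_mul_eq_mul_right (by norm_num) h2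

instance finite_Gam : Finite ↥Gam := Nat.finite_of_card_ne_zero (by rw [card_Gam]; norm_num)

theorem Q_uniq {a : Equiv.Perm (Fin U62.tb.n)} {f f' : Equiv.Perm LL} (hf : f ∈ Gam) (hf' : f' ∈ Gam) (h : Q a f) (h' : Q a f') :
    f = f' := by
  set c1 := Nat.card ↥Gam with hc1
  set c2 := Nat.card (Equiv.Perm (Fin U62.tb.n)) with hc2
  have hc1p : 0 < c1 := Nat.card_pos
  have hc2p : 0 < c2 := Nat.card_pos
  have hn : 0 < c1 * c2 := Nat.mul_pos hc1p hc2p
  have e1 : f ^ (c1 * c2) = 1 := by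
    have h1 : ((⟨f, hf⟩ : ↥Gam)) ^ c1 = 1 := pow_card_eq_one'
    have h2 : f ^ c1 = 1 := congrArg Subtype.val h1
    rw [pow_mul, h2, one_pow]
  have e2 : a ^ (c1 * c2) = 1 := by
    have h1 : a ^ c2 = 1 := pow_card_eq_one'
    rw [mul_comm, pow_mul, h1, one_pow]
  have e3 : f ^ (c1 * c2 - 1) * f = 1 := by
    rw [← pow_succ, Nat.sub_add_cancel hn, e1]
  have e4 : a ^ (c1 * c2 - 1) * a = 1 := by
    rw [← pow_succ, Nat.sub_add_cancel hn, e2]
  have h3 := Q_mul (Q_pow h (c1 * c2 - 1)) h'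
  rw [e4] at h3
  have h4 := eq_one_of_Q (Gam.mul_mem (Gam.pow_mem hf _) hf') h3
  exact (mul_left_cancel (e3.trans h4.symm))

/-! ### Isomorphisms -/

theorem exists_hom {A B : Type*} [Group A] [Group B] (R : A → B → Prop) (hex : ∀ a, ∃ b, R a b)
    (huniq : ∀ a b b', R a b → R a b' → b = b') (hmul : ∀ a a' b b', R a b → R a' b' → R (a * a') (b * b')) :
    ∃ f : A →* B, ∀ a, R a (f a) := by
  choose f hf using hex
  exact ⟨MonoidHom.mk' f (fun a a' => huniq _ _ _ (hf _) (hmul _ _ _ _ (hf a) (hf a'))), hf⟩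

theorem card_AA : 9196830720 ≤ Nat.card ↥AA := by
  have h := U62.L0
  rw [List.drop_zero] at h
  exact h

theorem Re_uniq {a : Equiv.Perm (Fin U62.tb.n)} {k k' : U62.PS} (h : U62.Re a k) (h' : U62.Re a k') : k = k' := by
  have h1 : k⁻¹ * k' = 1 := by
    apply U62.hβ
    rintro _ ⟨n, hn, rfl⟩
    have hn' : n < U62.tb.n := hn
    have e1 := h ⟨n, hn'⟩
    have e2 := h' ⟨n, hn'⟩
    rw [map_mul, Equiv.Perm.mul_apply]
    show (U62.β k⁻¹) (U62.β k' (U62.τ (⟨n, hn'⟩ : Fin U62.tb.n).val)) = U62.τ (⟨n, hn'⟩ : Fin U62.tb.n).val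
    rw [e2, ← e1, map_inv]
    simp
  exact (inv_mul_eq_one.1 h1)

theorem exists_e1 : Nonempty (↥AA ≃* U62.PS) := by
  obtain ⟨χ, hχ⟩ := exists_hom (A := ↥AA) (B := U62.PS) (fun a k => U62.Re a.1 k)
    (fun a => by
      obtain ⟨k, _, h⟩ := U62.exists_Re ⊤ (fun _ _ => Subgroup.mem_top _) a.1 a.2
      exact ⟨k, h⟩)
    (fun a b b' h h' => Re_uniq h h')
    (fun a a' b b' h h' => by
      intro n
      show U62.β (b * b') (U62.τ n.val) = U62.τ ((a.1 * a'.1) n).val
      rw [map_mul, Equiv.Perm.mul_apply, h' n, Equiv.Perm.mul_apply]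
      exact h (a'.1 n))
  have hinj : Function.Injective χ := by
    rw [injective_iff_map_eq_one]
    intro a ha
    have h1 := hχ a
    rw [ha] at h1
    apply Subtype.ext
    apply Equiv.ext
    intro n
    have h2 := h1 n
    rw [map_one] at h2
    apply Fin.ext
    exact (U62.τ_inj n.2 (a.1 n).2 h2).symm
  have hfin : Finite U62.PS := Nat.finite_of_card_ne_zero (by rw [U62.card_PS]; norm_num)
  have hbij : Function.Bijective χ := hinj.bijective_of_nat_card_le (by
    rw [U62.card_PS]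
    exact card_AA)
  exact ⟨MulEquiv.ofBijective χ hbij⟩

theorem exists_e2 : Nonempty (↥AA ≃* ↥Gam) := by
  obtain ⟨e1⟩ := exists_e1
  have hs : IsSimpleGroup ↥AA := by
    have := U62.simplePS
    exact e1.isSimpleGroup
  obtain ⟨ψ, hψ⟩ := exists_hom (A := ↥AA) (B := ↥Gam) (fun a f => Q a.1 f.1)
    (fun a => by
      obtain ⟨f, hf, h⟩ := exists_Q a.1 a.2
      exact ⟨⟨f, hf⟩, h⟩)
    (fun a b b' h h' => Subtype.ext (Q_uniq b.2 b'.2 h h'))
    (fun a a' b b' h h' => Q_mul h h')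
  have hker : ψ.ker ≠ ⊤ := by
    intro htop
    obtain ⟨f, hf⟩ := exG 1 (by norm_num)
    have hmem : evalWord U62.tb.perm [1] ∈ AA :=
      Subgroup.subset_closure ⟨[1], by decide +kernel, rfl⟩
    have h1 : ψ ⟨_, hmem⟩ = 1 := by
      have : (⟨_, hmem⟩ : ↥AA) ∈ ψ.ker := by
        rw [htop]
        exact Subgroup.mem_top _
      exact this
    have h2 := hψ ⟨_, hmem⟩
    rw [h1] at h2
    have h3 : evalWord U62.tb.perm [1] = U62.tb.perm 1 := by
      rw [evalWord_cons, evalWord_nil, mul_one]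
    have h4 : Q (U62.tb.perm 1) 1 := by
      have h5 : Q (evalWord U62.tb.perm [1]) 1 := h2
      rwa [h3] at h5
    have h6 : f = 1 := Q_uniq hf.mem Gam.one_mem hf.q h4
    have h7 := hf.img 0 (by norm_num)
    rw [h6] at h7
    have h8 : xv 0 = xv (sg 1 0) := h7
    have h9 := congrFun (congrArg Subtype.val h8) (pt 0)
    rw [xv_pt (by norm_num) (by norm_num), xv_pt (by have := sg10; omega) (by norm_num)] at h9
    exact moved h9.symm
  have hinj : Function.Injective ψ := by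
    rw [injective_iff_map_eq_one']
    intro a
    constructor
    · intro ha
      rcases IsSimpleGroup.eq_bot_or_eq_top_of_normal ψ.ker ψ.normal_ker with h | h
      · have : a ∈ ψ.ker := ha
        rw [h] at this
        exact this
      · exact absurd h hker
    · rintro rfl
      exact map_one _
  have hbij : Function.Bijective ψ := hinj.bijective_of_nat_card_le (by
    rw [card_Gam]
    exact card_AA)
  exact ⟨MulEquiv.ofBijective ψ hbij⟩

/-- The main statement. -/
theorem S1577_aux (v w : LL) (hv : sqNorm v.1 = 32) (hw : sqNorm w.1 = 32) (hd : dotInt v.1 w.1 = -16)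
    (F : Type) [Field F] [Fintype F] (hF : Fintype.card F = 4) :
    Nonempty (↥(MulAction.stabilizer ↥Co0 v ⊓ MulAction.stabilizer ↥Co0 w) ≃* PSU 6 F 2) := by
  obtain ⟨e1⟩ := exists_e1
  obtain ⟨e2⟩ := exists_e2
  obtain ⟨k, hk, e⟩ := orb32 v hv
  have himg := XD_image hk v (-16)
  rw [e] at himg
  have h1 : k w ∈ XD leechU (-16) := by
    rw [← himg]
    exact ⟨w, ⟨hw, hd⟩, rfl⟩
  obtain ⟨t, ht⟩ := X46.trans_XD h1 w0_mem
  have hK : t.1 * k ∈ Co0 := mul_mem t.2.1 hk
  have eU : (t.1 * k) v = leechU := by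
    rw [Equiv.Perm.mul_apply, e]
    exact t.2.2
  have eW : (t.1 * k) w = w0 := by
    rw [Equiv.Perm.mul_apply]
    exact ht
  have hiso : ↥(MulAction.stabilizer ↥Co0 v ⊓ MulAction.stabilizer ↥Co0 w) ≃* ↥Gam := by
    refine TabSimple.conjIso (B := Gam) (fun _ hg => Gam_co0 hg) hK fun a => ?_
    have h3 := TabSimple.conj_fix_iff (g := a.1) eU
    have h4 := TabSimple.conj_fix_iff (g := a.1) eW
    have mem : t.1 * k * a.1 * (t.1 * k)⁻¹ ∈ Co0 := mul_mem (mul_mem hK a.2) (inv_mem hK)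
    rw [Subgroup.mem_inf, mem_stabilizer_iff, mem_stabilizer_iff]
    constructor
    · rintro ⟨h5, h6⟩
      exact mem_Gam mem (h3.2 h5) (h4.2 h6)
    · intro h5
      exact ⟨h3.1 (Gam_U h5), h4.1 (Gam_w h5)⟩
  have hc : Fintype.card Cfsg.Agent.Lib.Classical.FF4.F4 = Fintype.card F := by
    rw [hF, Cfsg.Agent.Lib.Classical.FF4.card_F4]
  exact ⟨hiso.trans (e2.symm.trans (e1.trans (Cfsg.Agent.Lib.Classical.RC.psuCongr (FiniteField.ringEquivOfCardEq hc) 6 2)))⟩

end Cfsg.Agent.Lib.Conway.U62C
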